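import Mathlib
import Cfsg.Prelude.Def_FischerSpaces
import Cfsg.Agent.ClassicalGeometry.ReflClass

/-!
# Reflections over the field with three elements: the reflections of one norm form a class of
3-transpositions
-/

set_option autoImplicit false
set_option linter.unusedSectionVars false

namespace Cfsg.Agent.H806.Refl

open QuadraticMap Matrix Module
open Cfsg.Agent.ClassicalGeometry.Reflection Cfsg.Agent.ClassicalGeometry.CartanDieudonne
  Cfsg.Agent.ClassicalGeometry.ReflClass

section General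

variable {ι : Type} [Fintype ι] [DecidableEq ι] {F : Type*} [Field F]

/-- Two reflections in vectors of the same non-zero norm on different lines commute exactly when
the vectors are orthogonal. -/
theorem commute_iff (h2 : (2 : F) ≠ 0) (Q : QuadraticForm F (ι → F)) (u v : ι → F)
    (hu : Q u ≠ 0) (huv : Q u = Q v) (h1 : v ≠ u) (h2' : v ≠ -u) :
    Commute (Cfsg.reflectionMatrix (⇑Q) u) (Cfsg.reflectionMatrix (⇑Q) v) ↔
      polar (⇑Q) u v = 0 := by
  have hv : Q v ≠ 0 := by rw [← huv]; exact hu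
  constructor
  · intro h
    by_contra hne
    have e1 : Cfsg.reflectionMatrix (⇑Q) u *ᵥ (Cfsg.reflectionMatrix (⇑Q) v *ᵥ u) =
        Cfsg.reflectionMatrix (⇑Q) v *ᵥ (Cfsg.reflectionMatrix (⇑Q) u *ᵥ u) := by
      rw [Matrix.mulVec_mulVec, Matrix.mulVec_mulVec, h.eq]
    rw [reflectionMatrix_mulVec_self Q u hu, Matrix.mulVec_neg, reflectionMatrix_mulVec Q v u,
      Matrix.mulVec_sub, reflectionMatrix_mulVec_self Q u hu, Matrix.mulVec_smul,
      reflectionMatrix_mulVec Q u v, polar_comm (⇑Q) v u, ← huv] at e1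
    set t := (Q u)⁻¹ * polar (⇑Q) u v with ht
    have ht0 : t ≠ 0 := mul_ne_zero (inv_ne_zero hu) hne
    -- `-u - t (v - t u) = -(u - t v)`
    have e2 : (2 * t) • v = (t * t) • u := by
      have e3 : -u - t • (v - t • u) + (u - t • v) = 0 := by rw [e1]; abel
      have e4 : -u - t • (v - t • u) + (u - t • v) = (t * t) • u - (2 * t) • v := by module
      rw [e4] at e3
      exact (sub_eq_zero.1 e3).symm
    have e5 : v = (t / 2) • u := by
      have h3 : (2 * t)⁻¹ • ((2 * t) • v) = (2 * t)⁻¹ • ((t * t) • u) := by rw [e2]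
      rw [smul_smul, smul_smul, inv_mul_cancel₀ (mul_ne_zero h2 ht0), one_smul] at h3
      rw [h3]
      congr 1
      field_simp
    have e6 : (t / 2) * (t / 2) = 1 := by
      have h3 := huv
      rw [e5, QuadraticMap.map_smul, smul_eq_mul] at h3
      have h4 : (t / 2 * (t / 2) - 1) * Q u = 0 := by linear_combination -h3
      rcases mul_eq_zero.1 h4 with h5 | h5
      · linear_combination h5
      · exact absurd h5 hu
    rcases mul_self_eq_one_iff.1 e6 with h3 | h3
    · rw [h3, one_smul] at e5; exact h1 e5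
    · rw [h3, neg_smul, one_smul] at e5; exact h2' e5
  · intro h
    have h' : polar (⇑Q) v u = 0 := by rw [polar_comm]; exact h
    apply Matrix.mulVec_injective
    funext x
    rw [← Matrix.mulVec_mulVec, ← Matrix.mulVec_mulVec]
    simp only [reflectionMatrix_mulVec, QuadraticMap.polar_sub_right,
      QuadraticMap.polar_smul_right, h, h', smul_zero, sub_zero]
    module

/-- reflections with the same matrix have proportional centres -/
theorem eq_or_eq_neg (h2 : (2 : F) ≠ 0) (Q : QuadraticForm F (ι → F)) (u v : ι → F)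
    (hu : Q u ≠ 0) (huv : Q u = Q v)
    (h : Cfsg.reflectionMatrix (⇑Q) u = Cfsg.reflectionMatrix (⇑Q) v) : v = u ∨ v = -u := by
  have hv : Q v ≠ 0 := by rw [← huv]; exact hu
  have h1 : Cfsg.reflectionMatrix (⇑Q) u *ᵥ v = -v := by
    rw [h]; exact reflectionMatrix_mulVec_self Q v hv
  rw [reflectionMatrix_mulVec] at h1
  set t := (Q u)⁻¹ * polar (⇑Q) u v with ht
  have e2 : (2 : F) • v = t • u := by
    have e3 : v - t • u + v = 0 := by rw [h1]; abel
    have e4 : v - t • u + v = (2 : F) • v - t • u := by module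
    rw [e4] at e3
    exact sub_eq_zero.1 e3
  have e5 : v = (t / 2) • u := by
    have h3 : (2 : F)⁻¹ • ((2 : F) • v) = (2 : F)⁻¹ • (t • u) := by rw [e2]
    rw [smul_smul, smul_smul, inv_mul_cancel₀ h2, one_smul] at h3
    rw [h3]
    congr 1
    field_simp
  have e6 : (t / 2) * (t / 2) = 1 := by
    have h3 := huv
    rw [e5, QuadraticMap.map_smul, smul_eq_mul] at h3
    have h4 : (t / 2 * (t / 2) - 1) * Q u = 0 := by linear_combination -h3
    rcases mul_eq_zero.1 h4 with h5 | h5
    · linear_combination h5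
    · exact absurd h5 hu
  rcases mul_self_eq_one_iff.1 e6 with h3 | h3
  · left; rw [e5, h3, one_smul]
  · right; rw [e5, h3, neg_smul, one_smul]

/-- A vector of non-zero norm orthogonal to an orthogonal family of fewer than `n` vectors of
non-zero norm. -/
theorem exists_perp_family (h2 : (2 : F) ≠ 0) (Q : QuadraticForm F (ι → F))
    (hQ : (polarBilin Q).Nondegenerate) {k : ℕ} (hk : k < Fintype.card ι)
    (u : Fin k → ι → F) (hu : ∀ i, Q (u i) ≠ 0)
    (ho : ∀ i j, i ≠ j → polar (⇑Q) (u i) (u j) = 0) :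
    ∃ e : ι → F, (∀ i, polar (⇑Q) (u i) e = 0) ∧ Q e ≠ 0 := by
  classical
  have hfin : finrank F (Submodule.span F (Set.range u)) < Fintype.card ι := by
    refine lt_of_le_of_lt (finrank_range_le_card u) ?_
    rwa [Fintype.card_fin]
  obtain ⟨e, he1, he2⟩ := exists_perp_ne_zero Q hQ (Submodule.span F (Set.range u)) hfin (by
    intro x
    refine ⟨∑ i, ((2 * Q (u i))⁻¹ * polar (⇑Q) (u i) x) • u i,
      Submodule.sum_mem _ fun i _ => Submodule.smul_mem _ _ (Submodule.subset_span ⟨i, rfl⟩), ?_⟩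
    intro y hy
    have key : ∀ j, polar (⇑Q) (x - ∑ i, ((2 * Q (u i))⁻¹ * polar (⇑Q) (u i) x) • u i) (u j)
        = 0 := by
      intro j
      have e1 : polar (⇑Q) (x - ∑ i, ((2 * Q (u i))⁻¹ * polar (⇑Q) (u i) x) • u i) (u j) =
          polarBilin Q x (u j) - ∑ i, ((2 * Q (u i))⁻¹ * polar (⇑Q) (u i) x) *
            polarBilin Q (u i) (u j) := by
        rw [← polarBilin_apply_apply, map_sub, map_sum, LinearMap.sub_apply,
          LinearMap.sum_apply]
        congr 1
        refine Finset.sum_congr rfl fun i _ => ?_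
        rw [map_smul, LinearMap.smul_apply, smul_eq_mul]
      rw [e1, Finset.sum_eq_single j]
      · rw [polarBilin_apply_apply, polarBilin_apply_apply, polar_self', polar_comm (⇑Q) x]
        have h3 := hu j
        field_simp
        ring
      · intro i _ hij
        rw [polarBilin_apply_apply, ho i j hij, mul_zero]
      · intro h
        exact absurd (Finset.mem_univ j) h
    induction hy using Submodule.span_induction with
    | mem y hy => obtain ⟨j, rfl⟩ := hy; exact key j
    | zero => exact QuadraticMap.polar_zero_right _ _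
    | add y z _ _ hy hz => rw [QuadraticMap.polar_add_right, hy, hz, add_zero]
    | smul a y _ hy => rw [QuadraticMap.polar_smul_right, hy, smul_zero])
  refine ⟨e, fun i => ?_, he2⟩
  rw [polar_comm]
  exact he1 _ (Submodule.subset_span ⟨i, rfl⟩)

end General

/-! ### The field with three elements -/

section Three

variable {n : ℕ}

theorem two_ne : (2 : ZMod 3) ≠ 0 := by decide

theorem cases_ne {a : ZMod 3} (ha : a ≠ 0) : a = 1 ∨ a = -1 := by
  revert ha; revert a; decide

theorem sq_one {a : ZMod 3} (ha : a ≠ 0) : a ^ 2 = 1 := by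
  revert ha; revert a; decide

theorem eq_or_neg {a b : ZMod 3} (ha : a ≠ 0) (hb : b ≠ 0) : a = b ∨ a = -b := by
  revert ha hb; revert a b; decide

theorem reflSet_eq (Q : QuadraticForm (ZMod 3) (Fin n → ZMod 3)) (c : ZMod 3) :
    reflSet Q c = Cfsg.reflectionsOfNorm (⇑Q) c := by
  ext g
  constructor
  · rintro ⟨v, t, ht, hv, hg⟩
    exact ⟨v, by rw [hv, sq_one ht, mul_one], hg⟩
  · rintro ⟨v, hv, hg⟩
    exact ⟨v, 1, one_ne_zero, by rw [hv, one_pow, mul_one], hg⟩

theorem reflClass_eq (Q : QuadraticForm (ZMod 3) (Fin n → ZMod 3)) (c : ZMod 3) :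
    reflClass Q c = Cfsg.reflectionSubgroup (⇑Q) c := by
  rw [reflClass, reflSet_eq]; rfl

theorem index_two (hn : 5 ≤ n) (Q : QuadraticForm (ZMod 3) (Fin n → ZMod 3))
    (hQ : (polarBilin Q).Nondegenerate) (c : ZMod 3) (hc : c ≠ 0) :
    (Cfsg.reflectionSubgroup (⇑Q) c).index = 2 := by
  rw [← reflClass_eq]
  refine reflClass_index two_ne Q hQ (by rw [Fintype.card_fin]; omega)
    (Or.inr (Or.inl (by rw [Fintype.card_fin]; exact hn))) c hc

variable (Q : QuadraticForm (ZMod 3) (Fin n → ZMod 3)) {c : ZMod 3}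

/-- the reflection as a member of the reflection group -/
def rf (hc : c ≠ 0) (v : Fin n → ZMod 3) (hv : Q v = c) : ↥(Cfsg.reflectionSubgroup (⇑Q) c) :=
  ⟨reflIso Q v (by rw [hv]; exact hc), Subgroup.subset_closure ⟨v, hv, rfl⟩⟩

theorem coe_rf (hc : c ≠ 0) (v : Fin n → ZMod 3) (hv : Q v = c) :
    ((rf Q hc v hv : ↥(Cfsg.reflectionSubgroup (⇑Q) c)) : Cfsg.isometryGroup (ZMod 3) (⇑Q)) =
      reflIso Q v (by rw [hv]; exact hc) := rfl

/-- the class of reflections -/
def DD (c : ZMod 3) : Set ↥(Cfsg.reflectionSubgroup (⇑Q) c) :=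
  {g : ↥(Cfsg.reflectionSubgroup (⇑Q) c) |
    (g : ↥(Cfsg.isometryGroup (ZMod 3) (⇑Q))) ∈ Cfsg.reflectionsOfNorm (⇑Q) c}

theorem rf_mem (hc : c ≠ 0) (v : Fin n → ZMod 3) (hv : Q v = c) : rf Q hc v hv ∈ DD Q c :=
  ⟨v, hv, rfl⟩

theorem exists_rf (hc : c ≠ 0) {g : ↥(Cfsg.reflectionSubgroup (⇑Q) c)} (hg : g ∈ DD Q c) :
    ∃ (v : Fin n → ZMod 3) (hv : Q v = c), g = rf Q hc v hv := by
  obtain ⟨v, hv, h⟩ := hg
  refine ⟨v, hv, ?_⟩
  apply Subtype.ext
  exact eq_reflIso Q _ v (by rw [hv]; exact hc) h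

theorem rf_mul_self (hc : c ≠ 0) (v : Fin n → ZMod 3) (hv : Q v = c) :
    rf Q hc v hv * rf Q hc v hv = 1 :=
  Subtype.ext (reflIso_mul_self Q v _)

theorem rf_ne_one (hc : c ≠ 0) (v : Fin n → ZMod 3) (hv : Q v = c) : rf Q hc v hv ≠ 1 := by
  intro h
  have h1 : (((rf Q hc v hv : ↥(Cfsg.reflectionSubgroup (⇑Q) c)) :
      Cfsg.isometryGroup (ZMod 3) (⇑Q)) : Matrix.GeneralLinearGroup (Fin n) (ZMod 3)) = 1 := by
    rw [h]; rfl
  have h2 := det_reflectionMatrix Q v (by rw [hv]; exact hc)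
  have h3 : Cfsg.reflectionMatrix (⇑Q) v = 1 := congrArg Units.val h1
  rw [h3, Matrix.det_one] at h2
  exact absurd h2 (by decide)

theorem rf_congr (hc : c ≠ 0) {v w : Fin n → ZMod 3} (hv : Q v = c) (hw : Q w = c) (h : v = w) :
    rf Q hc v hv = rf Q hc w hw := by subst h; rfl

theorem rf_neg (hc : c ≠ 0) {v : Fin n → ZMod 3} (hv : Q v = c) (hw : Q (-v) = c) :
    rf Q hc (-v) hw = rf Q hc v hv := by
  apply Subtype.ext
  apply isometryGroup_ext
  intro x
  rw [coe_rf, coe_rf, coe_reflIso, coe_reflIso, reflectionMatrix_mulVec, reflectionMatrix_mulVec,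
    QuadraticMap.map_neg, QuadraticMap.polar_neg_left]
  simp

/-- conjugation by an element of the group -/
theorem conj_rf (hc : c ≠ 0) (v : Fin n → ZMod 3) (hv : Q v = c)
    (g : ↥(Cfsg.reflectionSubgroup (⇑Q) c)) :
    g * rf Q hc v hv * g⁻¹ = rf Q hc
      ((((g : Cfsg.isometryGroup (ZMod 3) (⇑Q)) : Matrix.GeneralLinearGroup (Fin n) (ZMod 3)) :
        Matrix (Fin n) (Fin n) (ZMod 3)) *ᵥ v)
      (by rw [(mem_isometryGroup_iff _ _).1 (g : Cfsg.isometryGroup (ZMod 3) (⇑Q)).2 v, hv]) := by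
  apply Subtype.ext
  exact conj_reflIso Q v _ _ _

theorem rf_commute (hc : c ≠ 0) {v w : Fin n → ZMod 3} (hv : Q v = c) (hw : Q w = c)
    (h : polar (⇑Q) v w = 0) : Commute (rf Q hc v hv) (rf Q hc w hw) := by
  have h' : polar (⇑Q) w v = 0 := by rw [polar_comm]; exact h
  apply Subtype.ext
  apply Subtype.ext
  apply Units.ext
  show Cfsg.reflectionMatrix (⇑Q) v * Cfsg.reflectionMatrix (⇑Q) w =
    Cfsg.reflectionMatrix (⇑Q) w * Cfsg.reflectionMatrix (⇑Q) v
  apply Matrix.mulVec_injective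
  funext x
  rw [← Matrix.mulVec_mulVec, ← Matrix.mulVec_mulVec]
  simp only [reflectionMatrix_mulVec, QuadraticMap.polar_sub_right,
    QuadraticMap.polar_smul_right, h, h', smul_zero, sub_zero]
  module

theorem rf_mulVec (hc : c ≠ 0) {v : Fin n → ZMod 3} (hv : Q v = c) (x : Fin n → ZMod 3) :
    ((((rf Q hc v hv : Cfsg.isometryGroup (ZMod 3) (⇑Q)) :
      Matrix.GeneralLinearGroup (Fin n) (ZMod 3)) :
        Matrix (Fin n) (Fin n) (ZMod 3)) *ᵥ x) = x - (c⁻¹ * polar (⇑Q) v x) • v := by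
  rw [coe_rf, coe_reflIso, reflectionMatrix_mulVec, hv]

/-- the braid relation -/
theorem rf_braid (hc : c ≠ 0) {v w : Fin n → ZMod 3} (hv : Q v = c) (hw : Q w = c)
    (h : polar (⇑Q) v w ≠ 0) :
    rf Q hc v hv * rf Q hc w hw * rf Q hc v hv = rf Q hc w hw * rf Q hc v hv * rf Q hc w hw := by
  have hvi : (rf Q hc v hv)⁻¹ = rf Q hc v hv := inv_eq_of_mul_eq_one_left (rf_mul_self Q hc v hv)
  have hwi : (rf Q hc w hw)⁻¹ = rf Q hc w hw := inv_eq_of_mul_eq_one_left (rf_mul_self Q hc w hw)
  have e1 := conj_rf Q hc w hw (rf Q hc v hv)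
  have e2 := conj_rf Q hc v hv (rf Q hc w hw)
  rw [hvi] at e1
  rw [hwi] at e2
  rw [e1, e2]
  have hcc : c⁻¹ ≠ 0 := inv_ne_zero hc
  set t := c⁻¹ * polar (⇑Q) v w with ht
  have ht0 : t ≠ 0 := mul_ne_zero hcc h
  have f1 := rf_mulVec Q hc hv w
  have f2 := rf_mulVec Q hc hw v
  rw [← ht] at f1
  rw [polar_comm (⇑Q) w v, ← ht] at f2
  rcases cases_ne ht0 with h1 | h1
  · have e3 : (((rf Q hc v hv : Cfsg.isometryGroup (ZMod 3) (⇑Q)) :
      Matrix.GeneralLinearGroup (Fin n) (ZMod 3)) :
        Matrix (Fin n) (Fin n) (ZMod 3)) *ᵥ w = -((((rf Q hc w hw :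
        Cfsg.isometryGroup (ZMod 3) (⇑Q)) : Matrix.GeneralLinearGroup (Fin n) (ZMod 3)) :
        Matrix (Fin n) (Fin n) (ZMod 3)) *ᵥ v) := by
      rw [f1, f2, h1, one_smul, one_smul]; abel
    have hq : Q (-((((rf Q hc w hw :
        Cfsg.isometryGroup (ZMod 3) (⇑Q)) : Matrix.GeneralLinearGroup (Fin n) (ZMod 3)) :
        Matrix (Fin n) (Fin n) (ZMod 3)) *ᵥ v)) = c := by
      rw [QuadraticMap.map_neg, (mem_isometryGroup_iff _ _).1
        (rf Q hc w hw : Cfsg.isometryGroup (ZMod 3) (⇑Q)).2 v, hv]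
    rw [rf_congr Q hc _ hq e3, rf_neg]
  · apply rf_congr
    rw [f1, f2, h1]; module

/-- two vectors of norm `c` are both non-orthogonal to a third vector of norm `c` or equal up to
sign -/
theorem exists_third (hn : 4 ≤ n) (hQ : (polarBilin Q).Nondegenerate) (hc : c ≠ 0)
    {v w : Fin n → ZMod 3} (hv : Q v = c) (hw : Q w = c) (h : polar (⇑Q) v w = 0) :
    ∃ z : Fin n → ZMod 3, Q z = c ∧ polar (⇑Q) v z ≠ 0 ∧ polar (⇑Q) w z ≠ 0 := by
  have h' : polar (⇑Q) w v = 0 := by rw [polar_comm]; exact h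
  have hx : ∃ x : Fin n → ZMod 3, polar (⇑Q) v x = 0 ∧ polar (⇑Q) w x = 0 ∧ Q x = -c := by
    obtain ⟨e, he, he0⟩ := exists_perp_family two_ne Q hQ (k := 2)
      (by rw [Fintype.card_fin]; omega) ![v, w]
      (by
        intro i
        fin_cases i
        · show Q v ≠ 0; rw [hv]; exact hc
        · show Q w ≠ 0; rw [hw]; exact hc)
      (by
        intro i j hij
        fin_cases i <;> fin_cases j
        · exact absurd rfl hij
        · exact h
        · exact h'
        · exact absurd rfl hij)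
    have hev : polar (⇑Q) v e = 0 := he 0
    have hew : polar (⇑Q) w e = 0 := he 1
    rcases eq_or_neg he0 hc with h1 | h1
    · obtain ⟨f, hf, hf0⟩ := exists_perp_family two_ne Q hQ (k := 3)
        (by rw [Fintype.card_fin]; omega) ![v, w, e]
        (by
          intro i
          fin_cases i
          · show Q v ≠ 0; rw [hv]; exact hc
          · show Q w ≠ 0; rw [hw]; exact hc
          · exact he0)
        (by
          intro i j hij
          fin_cases i <;> fin_cases j
          · exact absurd rfl hij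
          · exact h
          · exact hev
          · exact h'
          · exact absurd rfl hij
          · exact hew
          · show polar (⇑Q) e v = 0
            rw [polar_comm]; exact hev
          · show polar (⇑Q) e w = 0
            rw [polar_comm]; exact hew
          · exact absurd rfl hij)
      have hfv : polar (⇑Q) v f = 0 := hf 0
      have hfw : polar (⇑Q) w f = 0 := hf 1
      have hfe : polar (⇑Q) e f = 0 := hf 2
      rcases eq_or_neg hf0 hc with h3 | h3
      · refine ⟨e + f, ?_, ?_, ?_⟩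
        · rw [QuadraticMap.polar_add_right, hev, hfv, add_zero]
        · rw [QuadraticMap.polar_add_right, hew, hfw, add_zero]
        · rw [map_add', h1, h3, hfe, add_zero]
          have : ∀ a : ZMod 3, a + a = -a := by decide
          exact this c
      · exact ⟨f, hfv, hfw, h3⟩
    · exact ⟨e, hev, hew, h1⟩
  obtain ⟨x, hxv, hxw, hx⟩ := hx
  have h2c : (2 : ZMod 3) * c ≠ 0 := mul_ne_zero two_ne hc
  refine ⟨v + w + x, ?_, ?_, ?_⟩
  · rw [map_add', map_add', hv, hw, hx, h, QuadraticMap.polar_add_left, hxv, hxw]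
    ring
  · rw [QuadraticMap.polar_add_right, QuadraticMap.polar_add_right, polar_self', hv, h, hxv,
      add_zero, add_zero]
    exact h2c
  · rw [QuadraticMap.polar_add_right, QuadraticMap.polar_add_right, polar_self', hw, h', hxw,
      add_zero, zero_add]
    exact h2c

theorem exists_conj_of_polar (hc : c ≠ 0) {v w : Fin n → ZMod 3} (hv : Q v = c) (hw : Q w = c)
    (h : polar (⇑Q) v w ≠ 0) :
    ∃ g : ↥(Cfsg.reflectionSubgroup (⇑Q) c), g * rf Q hc v hv * g⁻¹ = rf Q hc w hw := by
  have hb := rf_braid Q hc hv hw h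
  have hvv := rf_mul_self Q hc v hv
  have hww := rf_mul_self Q hc w hw
  refine ⟨rf Q hc v hv * rf Q hc w hw, ?_⟩
  have hvi : (rf Q hc v hv)⁻¹ = rf Q hc v hv := inv_eq_of_mul_eq_one_left hvv
  have hwi : (rf Q hc w hw)⁻¹ = rf Q hc w hw := inv_eq_of_mul_eq_one_left hww
  generalize rf Q hc v hv = a at *
  generalize rf Q hc w hw = b at *
  rw [_root_.mul_inv_rev, hvi, hwi]
  calc a * b * a * (b * a) = (a * b * a) * (b * a) := rfl
    _ = (b * a * b) * (b * a) := by rw [hb]
    _ = b * a * (b * b) * a := by simp only [mul_assoc]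
    _ = b * (a * a) := by rw [hww, mul_one, mul_assoc]
    _ = b := by rw [hvv, mul_one]

theorem exists_conj (hn : 4 ≤ n) (hQ : (polarBilin Q).Nondegenerate) (hc : c ≠ 0)
    {v w : Fin n → ZMod 3} (hv : Q v = c) (hw : Q w = c) :
    ∃ g : ↥(Cfsg.reflectionSubgroup (⇑Q) c), g * rf Q hc v hv * g⁻¹ = rf Q hc w hw := by
  by_cases h : polar (⇑Q) v w = 0
  · obtain ⟨z, hz, h1, h2⟩ := exists_third Q hn hQ hc hv hw h
    obtain ⟨g, hg⟩ := exists_conj_of_polar Q hc hv hz h1
    obtain ⟨k, hk⟩ := exists_conj_of_polar Q hc hz hw (by rw [polar_comm]; exact h2)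
    refine ⟨k * g, ?_⟩
    rw [← hk, ← hg]; group
  · exact exists_conj_of_polar Q hc hv hw h

/-- **The reflections of one norm form a class of 3-transpositions of the group they generate.** -/
theorem isClass (hn : 4 ≤ n) (hQ : (polarBilin Q).Nondegenerate) (hc : c ≠ 0) :
    Cfsg.IsThreeTranspositionClass (DD Q c) := by
  refine ⟨⟨?_, ?_⟩, ?_, ?_⟩
  · intro d hd
    obtain ⟨v, hv, rfl⟩ := exists_rf Q hc hd
    refine orderOf_eq_prime ?_ (rf_ne_one Q hc v hv)
    rw [pow_two]; exact rf_mul_self Q hc v hv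
  · intro d hd e he
    obtain ⟨v, hv, rfl⟩ := exists_rf Q hc hd
    obtain ⟨w, hw, rfl⟩ := exists_rf Q hc he
    have hvv := rf_mul_self Q hc v hv
    have hww := rf_mul_self Q hc w hw
    by_cases h : polar (⇑Q) v w = 0
    · left
      have := rf_commute Q hc hv hw h
      rw [this.mul_pow, pow_two, pow_two, hvv, hww, one_mul]
    · right
      have hb := rf_braid Q hc hv hw h
      generalize rf Q hc v hv = a at *
      generalize rf Q hc w hw = b at *
      calc (a * b) ^ 3 = (a * b * a) * (b * a * b) := by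
            rw [pow_succ, pow_two]; simp only [mul_assoc]
        _ = (b * a * b) * (b * a * b) := by rw [hb]
        _ = b * a * (b * b) * a * b := by simp only [mul_assoc]
        _ = b * (a * a) * b := by rw [hww, mul_one]; simp only [mul_assoc]
        _ = 1 := by rw [hvv, mul_one, hww]
  · obtain ⟨v, hv⟩ := exists_norm_eq two_ne Q hQ (by rw [Fintype.card_fin]; omega) c
    refine ⟨rf Q hc v hv, rf_mem Q hc v hv, ?_⟩
    ext g
    constructor
    · intro hg
      obtain ⟨w, hw, rfl⟩ := exists_rf Q hc hg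
      obtain ⟨k, hk⟩ := exists_conj Q hn hQ hc hv hw
      exact isConj_iff.2 ⟨k, hk⟩
    · intro hg
      obtain ⟨k, rfl⟩ := isConj_iff.1 (show IsConj (rf Q hc v hv) g from hg)
      rw [conj_rf]
      exact rf_mem Q hc _ _
  · exact Subgroup.closure_preimage_eq_top (Cfsg.reflectionsOfNorm (⇑Q) c)

end Three

end Cfsg.Agent.H806.Refl
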